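import Mathlib.LinearAlgebra.Matrix.GeneralLinearGroup.Card
import Mathlib.LinearAlgebra.Matrix.Rank
import Mathlib.LinearAlgebra.Matrix.Basis
import Mathlib.LinearAlgebra.Projection
import Mathlib.LinearAlgebra.FiniteDimensional.Lemmas
import Mathlib.LinearAlgebra.Matrix.Charpoly.Coeff
import Mathlib.Data.Matrix.ColumnRowPartitioned

/-! Counting nilpotent matrices over a finite field by the Fitting decomposition. -/

set_option autoImplicit false

namespace CfsgLib.GLOrders

open Matrix

variable {F : Type*} [Field F]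

/-- The nilpotent matrices of size `n`. -/
abbrev NilMat (F : Type*) [Field F] (n : ℕ) : Type _ := {N : Matrix (Fin n) (Fin n) F // IsNilpotent N}

theorem nilMat_pow {n : ℕ} {N : Matrix (Fin n) (Fin n) F} (h : IsNilpotent N) : N ^ n = 0 := by
  have h4 := Matrix.isNilpotent_charpoly_sub_pow_of_isNilpotent h
  have h5 := Matrix.aeval_self_charpoly N
  rw [sub_eq_zero.mp h4.eq_zero, map_pow, Polynomial.aeval_X, Fintype.card_fin] at h5
  exact h5

/-- The index equivalence of a two-block decomposition. -/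
def twoBlock {j k n : ℕ} (h : j + k = n) : Fin j ⊕ Fin k ≃ Fin n := finSumFinEquiv.trans (finCongr h)

theorem rank_zero_block {j k : ℕ} (A : Matrix (Fin k) (Fin k) F) :
    (fromBlocks (0 : Matrix (Fin j) (Fin j) F) 0 0 A).rank = A.rank := by
  have h1 : fromBlocks (0 : Matrix (Fin j) (Fin j) F) 0 0 A =
      (fromRows (0 : Matrix (Fin j) (Fin k) F) 1) * (A * fromCols (0 : Matrix (Fin k) (Fin j) F) 1) := by
    rw [Matrix.mul_fromCols, Matrix.fromRows_mul_fromCols]
    simp
  have h2 : A = fromCols (0 : Matrix (Fin k) (Fin j) F) 1 * fromBlocks (0 : Matrix (Fin j) (Fin j) F) 0 0 A *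
      fromRows (0 : Matrix (Fin j) (Fin k) F) 1 := by
    rw [Matrix.fromCols_mul_fromBlocks, Matrix.fromCols_mul_fromRows]
    simp
  refine le_antisymm ?_ ?_
  · rw [h1]
    exact (Matrix.rank_mul_le_right _ _).trans (Matrix.rank_mul_le_left _ _)
  · conv_lhs => rw [h2]
    exact (Matrix.rank_mul_le_left _ _).trans (Matrix.rank_mul_le_right _ _)

theorem exists_fitting {j k n : ℕ} (h : j + k = n) (M : Matrix (Fin n) (Fin n) F) (hM : (M ^ n).rank = k) :
    ∃ (g : GL (Fin n) F) (N : NilMat F j) (U : GL (Fin k) F),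
      M * (g : Matrix (Fin n) (Fin n) F) =
        (g : Matrix (Fin n) (Fin n) F) * Matrix.reindex (twoBlock h) (twoBlock h) (fromBlocks N.1 0 0 (U : Matrix (Fin k) (Fin k) F)) := by
  classical
  set f := Matrix.toLin' M with hf
  have hfn : ∀ i, f ^ i = Matrix.toLin' (M ^ i) := fun i => (map_pow (Matrix.toLinAlgEquiv' (R := F)) M i).symm
  set K := LinearMap.ker (f ^ n) with hK
  set I := LinearMap.range (f ^ n) with hI
  have hIk : Module.finrank F I = k := by rw [hI, hfn, ← hM]; rfl
  have hKj : Module.finrank F K = j := by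
    have h1 := LinearMap.finrank_range_add_finrank_ker (f ^ n)
    rw [Module.finrank_fin_fun, ← hI, ← hK, hIk] at h1
    omega
  have hdis : Disjoint K I := by
    rw [Submodule.disjoint_def]
    rintro x hxK ⟨y, rfl⟩
    have h1 : y ∈ LinearMap.ker (f ^ (n + n)) := by
      rw [pow_add]; exact hxK
    have h2 := Module.End.ker_pow_eq_ker_pow_finrank_of_le (f := f) (m := n + n) (by rw [Module.finrank_fin_fun]; omega)
    rw [Module.finrank_fin_fun] at h2
    rw [h2] at h1
    exact h1
  have hcompl : IsCompl K I := by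
    refine Submodule.isCompl_iff_disjoint _ _ ?_ |>.mpr hdis
    rw [Module.finrank_fin_fun, hKj, hIk, h]
  let bK : Module.Basis (Fin j) F K := (Module.finBasis F K).reindex (finCongr hKj)
  let bI : Module.Basis (Fin k) F I := (Module.finBasis F I).reindex (finCongr hIk)
  let b : Module.Basis (Fin j ⊕ Fin k) F (Fin n → F) := (bK.prod bI).map (Submodule.prodEquivOfIsCompl K I hcompl)
  have hbl : ∀ i, (b (Sum.inl i) : Fin n → F) ∈ K := fun i => by simp [b, Submodule.coe_prodEquivOfIsCompl']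
  have hbr : ∀ i, (b (Sum.inr i) : Fin n → F) ∈ I := fun i => by simp [b, Submodule.coe_prodEquivOfIsCompl']
  have hzl : ∀ x ∈ K, ∀ i, b.repr x (Sum.inr i) = 0 := by
    intro x hx i
    simp only [b, Module.Basis.map_repr, LinearEquiv.trans_apply, Module.Basis.prod_repr_inr]
    rw [(Submodule.prodEquivOfIsCompl_symm_apply_snd_eq_zero K I hcompl).mpr hx, map_zero, Finsupp.zero_apply]
  have hzr : ∀ x ∈ I, ∀ i, b.repr x (Sum.inl i) = 0 := by
    intro x hx i
    simp only [b, Module.Basis.map_repr, LinearEquiv.trans_apply, Module.Basis.prod_repr_inl]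
    rw [(Submodule.prodEquivOfIsCompl_symm_apply_fst_eq_zero K I hcompl).mpr hx, map_zero, Finsupp.zero_apply]
  have hfK : ∀ x ∈ K, f x ∈ K := by
    intro x hx
    show (f ^ n) (f x) = 0
    rw [← Module.End.mul_apply, ← pow_succ, pow_succ', Module.End.mul_apply, show (f ^ n) x = 0 from hx, map_zero]
  have hfI : ∀ x ∈ I, f x ∈ I := by
    rintro _ ⟨y, rfl⟩
    exact ⟨f y, by rw [← Module.End.mul_apply, ← Module.End.mul_apply, ← pow_succ, pow_succ']⟩
  set B := LinearMap.toMatrix b b f with hB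
  have hblk : B = fromBlocks B.toBlocks₁₁ 0 0 B.toBlocks₂₂ := by
    conv_lhs => rw [← Matrix.fromBlocks_toBlocks B]
    congr 1
    · ext a c
      show B (Sum.inl a) (Sum.inr c) = 0
      rw [hB, LinearMap.toMatrix_apply]
      exact hzr _ (hfI _ (hbr c)) a
    · ext a c
      show B (Sum.inr a) (Sum.inl c) = 0
      rw [hB, LinearMap.toMatrix_apply]
      exact hzl _ (hfK _ (hbl c)) a
  have hpow : LinearMap.toMatrix b b (f ^ n) = fromBlocks (B.toBlocks₁₁ ^ n) 0 0 (B.toBlocks₂₂ ^ n) := by
    rw [← Matrix.fromBlocks_diagonal_pow, ← hblk, hB]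
    exact (map_pow (LinearMap.toMatrixAlgEquiv b) f n)
  have hN : B.toBlocks₁₁ ^ n = 0 := by
    ext a c
    have h1 := congrFun (congrFun hpow (Sum.inl a)) (Sum.inl c)
    rw [fromBlocks_apply₁₁, LinearMap.toMatrix_apply, show (f ^ n) (b (Sum.inl c)) = 0 from hbl c, map_zero] at h1
    exact h1.symm
  let e := twoBlock h
  let std := Pi.basisFun F (Fin n)
  let P : Matrix (Fin n) (Fin n) F := (std.toMatrix b).submatrix id e.symm
  have hMstd : LinearMap.toMatrix std std f = M := by
    simp only [std, hf, LinearMap.toMatrix_eq_toMatrix', LinearMap.toMatrix'_toLin']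
  have h1 : M * std.toMatrix b = std.toMatrix b * B := by
    rw [← hMstd, linearMap_toMatrix_mul_basis_toMatrix, hB, basis_toMatrix_mul_linearMap_toMatrix]
  have hPM : M * P = P * Matrix.reindex e e B := by
    have e1 : M * P = (M * std.toMatrix b).submatrix id e.symm := by
      ext i i'; simp [P, Matrix.mul_apply]
    rw [e1, h1]
    simp only [P, Matrix.reindex_apply]
    rw [Matrix.submatrix_mul_equiv]
  have hP : IsUnit P.det := by
    refine Matrix.isUnit_det_of_right_inverse (B := (b.toMatrix std).submatrix e.symm id) ?_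
    simp only [P]
    rw [Matrix.submatrix_mul_equiv, Module.Basis.toMatrix_mul_toMatrix_flip, Matrix.submatrix_id_id]
  have hpowM : ∀ i, M ^ i * P = P * (Matrix.reindex e e B) ^ i := by
    intro i
    induction i with
    | zero => simp
    | succ i ih => rw [pow_succ', pow_succ, Matrix.mul_assoc, ih, ← Matrix.mul_assoc, hPM, Matrix.mul_assoc, ← pow_succ', pow_succ]
  have hU : IsUnit B.toBlocks₂₂.det := by
    have h2 : (Matrix.reindex e e B) ^ n = Matrix.reindex e e (fromBlocks 0 0 0 (B.toBlocks₂₂ ^ n)) := by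
      rw [← hN, ← Matrix.fromBlocks_diagonal_pow, ← hblk]
      exact (map_pow (Matrix.reindexAlgEquiv F F e) B n).symm
    have h3 : (B.toBlocks₂₂ ^ n).rank = k := by
      rw [← rank_zero_block (j := j) (B.toBlocks₂₂ ^ n), ← Matrix.rank_reindex e e, ← h2]
      refine Eq.trans ?_ hM
      rw [← Matrix.rank_mul_eq_left_of_isUnit_det P (M ^ n) hP, hpowM, Matrix.rank_mul_eq_right_of_isUnit_det P _ hP]
    rcases Nat.eq_zero_or_pos n with hn | hn
    · have : k = 0 := by omega
      subst this
      rw [Matrix.det_isEmpty]; exact isUnit_one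
    · have h4 : IsUnit (B.toBlocks₂₂ ^ n) := by
        rw [← Matrix.mulVec_injective_iff_isUnit]
        have h5 := LinearMap.finrank_range_add_finrank_ker (B.toBlocks₂₂ ^ n).mulVecLin
        rw [Module.finrank_fin_fun] at h5
        have h6 : Module.finrank F (LinearMap.range (B.toBlocks₂₂ ^ n).mulVecLin) = k := h3
        have h7 : LinearMap.ker (B.toBlocks₂₂ ^ n).mulVecLin = ⊥ := Submodule.finrank_eq_zero.mp (by omega)
        exact LinearMap.ker_eq_bot.mp h7
      exact (Matrix.isUnit_iff_isUnit_det _).mp ((isUnit_pow_iff (by omega)).mp h4)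
  refine ⟨Matrix.GeneralLinearGroup.mk'' P hP, ⟨B.toBlocks₁₁, ⟨n, hN⟩⟩, Matrix.GeneralLinearGroup.mk'' _ hU, ?_⟩
  show M * P = P * Matrix.reindex e e (fromBlocks B.toBlocks₁₁ 0 0 B.toBlocks₂₂)
  rw [← hblk]
  exact hPM

theorem rank_conj_block {j k n : ℕ} (h : j + k = n) (g : GL (Fin n) F) (N : NilMat F j) (U : GL (Fin k) F) :
    (((g : Matrix (Fin n) (Fin n) F) * Matrix.reindex (twoBlock h) (twoBlock h) (fromBlocks N.1 0 0 (U : Matrix (Fin k) (Fin k) F)) *
      ((g⁻¹ : GL (Fin n) F) : Matrix (Fin n) (Fin n) F)) ^ n).rank = k := by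
  set e := twoBlock h
  rw [Units.conj_pow g, Matrix.rank_mul_eq_left_of_isUnit_det _ _ ((Matrix.isUnit_iff_isUnit_det _).mp (g⁻¹).isUnit),
    Matrix.rank_mul_eq_right_of_isUnit_det _ _ ((Matrix.isUnit_iff_isUnit_det _).mp g.isUnit)]
  have h1 : (Matrix.reindex e e (fromBlocks N.1 0 0 (U : Matrix (Fin k) (Fin k) F))) ^ n =
      Matrix.reindex e e (fromBlocks 0 0 0 ((U : Matrix (Fin k) (Fin k) F) ^ n)) := by
    rw [← pow_eq_zero_of_le (show j ≤ n by omega) (nilMat_pow N.2), ← Matrix.fromBlocks_diagonal_pow]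
    exact (map_pow (Matrix.reindexAlgEquiv F F e) _ n).symm
  rw [h1, Matrix.rank_reindex, rank_zero_block, Matrix.rank_of_isUnit _ (U.isUnit.pow n), Fintype.card_fin]

variable [Fintype F]

/-- Number of matrices with prescribed Fitting dimensions. -/
theorem card_fitting {j k n : ℕ} (h : j + k = n) :
    Nat.card {M : Matrix (Fin n) (Fin n) F // (M ^ n).rank = k} * Nat.card (GL (Fin j) F) =
      Nat.card (NilMat F j) * Nat.card (GL (Fin n) F) := by
  classical
  set e := twoBlock h with he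
  let R : Matrix (Fin j ⊕ Fin k) (Fin j ⊕ Fin k) F ≃ₐ[F] Matrix (Fin n) (Fin n) F := Matrix.reindexAlgEquiv F F e
  let blk : NilMat F j → GL (Fin k) F → Matrix (Fin n) (Fin n) F := fun N U =>
    R (fromBlocks N.1 0 0 (U : Matrix (Fin k) (Fin k) F))
  let emb : GL (Fin j) F × GL (Fin k) F →* GL (Fin n) F :=
    MonoidHom.toHomUnits
      { toFun := fun x => R (fromBlocks (x.1 : Matrix (Fin j) (Fin j) F) 0 0 (x.2 : Matrix (Fin k) (Fin k) F))
        map_one' := by simp
        map_mul' := fun x y => by rw [← map_mul, Matrix.fromBlocks_multiply]; simp }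
  let T := {M : Matrix (Fin n) (Fin n) F // (M ^ n).rank = k}
  let ψ : GL (Fin n) F × NilMat F j × GL (Fin k) F → T := fun x =>
    ⟨(x.1 : Matrix (Fin n) (Fin n) F) * blk x.2.1 x.2.2 * ((x.1⁻¹ : GL (Fin n) F) : Matrix (Fin n) (Fin n) F),
      rank_conj_block h x.1 x.2.1 x.2.2⟩
  have hfib : ∀ M : T, Nat.card {x // ψ x = M} = Nat.card (GL (Fin j) F × GL (Fin k) F) := by
    intro M
    obtain ⟨g0, N0, U0, hg0⟩ := exists_fitting h M.1 M.2
    change M.1 * (g0 : Matrix (Fin n) (Fin n) F) = (g0 : Matrix (Fin n) (Fin n) F) * blk N0 U0 at hg0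
    have hM : M.1 = (g0 : Matrix (Fin n) (Fin n) F) * blk N0 U0 * ((g0⁻¹ : GL (Fin n) F) : Matrix (Fin n) (Fin n) F) := by
      rw [← hg0, Matrix.mul_assoc, ← Units.val_mul, mul_inv_cancel, Units.val_one, Matrix.mul_one]
    let θ : GL (Fin j) F × GL (Fin k) F → {x // ψ x = M} := fun x =>
      ⟨(g0 * emb x, ⟨((x.1⁻¹ : GL (Fin j) F) : Matrix (Fin j) (Fin j) F) * N0.1 * (x.1 : Matrix (Fin j) (Fin j) F),
          ⟨j, by rw [Units.conj_pow' x.1, nilMat_pow N0.2, Matrix.mul_zero, Matrix.zero_mul]⟩⟩, x.2⁻¹ * U0 * x.2), by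
        apply Subtype.ext
        rw [hM]
        show ((g0 * emb x : GL (Fin n) F) : Matrix (Fin n) (Fin n) F) * blk _ _ * (((g0 * emb x)⁻¹ : GL (Fin n) F) : Matrix (Fin n) (Fin n) F) = _
        rw [_root_.mul_inv_rev, ← map_inv, Units.val_mul, Units.val_mul]
        simp only [Matrix.mul_assoc]
        congr 1
        simp only [← Matrix.mul_assoc]
        congr 1
        show R _ * R _ * R _ = R _
        rw [← map_mul, ← map_mul, Matrix.fromBlocks_multiply, Matrix.fromBlocks_multiply]
        simp [← Matrix.mul_assoc]⟩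
    refine (Nat.card_eq_of_bijective θ ⟨?_, ?_⟩).symm
    · intro x y hxy
      have h1 : g0 * emb x = g0 * emb y := congrArg Prod.fst (congrArg Subtype.val hxy)
      have h2 := congrArg Units.val (mul_left_cancel h1)
      obtain ⟨h3, -, -, h4⟩ := Matrix.fromBlocks_inj.mp (R.injective h2)
      exact Prod.ext (Units.ext h3) (Units.ext h4)
    · rintro ⟨⟨g, N, U⟩, hx⟩
      set a := g0⁻¹ * g with ha
      have hcomm : blk N0 U0 * (a : Matrix (Fin n) (Fin n) F) = (a : Matrix (Fin n) (Fin n) F) * blk N U := by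
        have h1 := congrArg Subtype.val hx
        change (g : Matrix (Fin n) (Fin n) F) * blk N U * ((g⁻¹ : GL (Fin n) F) : Matrix (Fin n) (Fin n) F) = M.1 at h1
        rw [hM] at h1
        have h2 := congrArg (fun Y => ((g0⁻¹ : GL (Fin n) F) : Matrix (Fin n) (Fin n) F) * Y * (g : Matrix (Fin n) (Fin n) F)) h1
        simp only [Matrix.mul_assoc, Units.inv_mul_cancel_left, Units.inv_mul, Matrix.mul_one] at h2
        rw [ha, Units.val_mul, Matrix.mul_assoc]
        exact h2.symm
      set A := R.symm (a : Matrix (Fin n) (Fin n) F) with hA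
      have hA' : fromBlocks N0.1 0 0 (U0 : Matrix (Fin k) (Fin k) F) * A = A * fromBlocks N.1 0 0 (U : Matrix (Fin k) (Fin k) F) := by
        apply R.injective
        rw [map_mul, map_mul, hA, AlgEquiv.apply_symm_apply]
        exact hcomm
      rw [← Matrix.fromBlocks_toBlocks A, Matrix.fromBlocks_multiply, Matrix.fromBlocks_multiply, Matrix.fromBlocks_inj] at hA'
      simp only [Matrix.zero_mul, Matrix.mul_zero, add_zero, zero_add] at hA'
      obtain ⟨e11, e12, e21, e22⟩ := hA'
      have hiter : ∀ {p r : ℕ} (S : Matrix (Fin p) (Fin p) F) (T : Matrix (Fin r) (Fin r) F) (X : Matrix (Fin p) (Fin r) F),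
          S * X = X * T → ∀ i, S ^ i * X = X * T ^ i := by
        intro p r S T X hST i
        induction i with
        | zero => simp
        | succ i ih => rw [pow_succ, Matrix.mul_assoc, hST, ← Matrix.mul_assoc, ih, Matrix.mul_assoc, ← pow_succ]
      have hz12 : A.toBlocks₁₂ = 0 := by
        have h1 := hiter _ _ _ e12 j
        rw [nilMat_pow N0.2, Matrix.zero_mul] at h1
        have h2 := congrArg (fun Y => Y * ((U⁻¹ ^ j : GL (Fin k) F) : Matrix (Fin k) (Fin k) F)) h1
        simp only [Matrix.zero_mul, Matrix.mul_assoc, ← Units.val_pow_eq_pow_val, ← Units.val_mul, inv_pow, mul_inv_cancel,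
          Units.val_one, Matrix.mul_one] at h2
        exact h2.symm
      have hz21 : A.toBlocks₂₁ = 0 := by
        have h1 := hiter _ _ _ e21 j
        rw [nilMat_pow N.2, Matrix.mul_zero] at h1
        have h2 := congrArg (fun Y => ((U0⁻¹ ^ j : GL (Fin k) F) : Matrix (Fin k) (Fin k) F) * Y) h1
        simp only [Matrix.mul_zero, ← Matrix.mul_assoc, ← Units.val_pow_eq_pow_val, ← Units.val_mul, inv_pow, inv_mul_cancel,
          Units.val_one, Matrix.one_mul] at h2
        exact h2
      have hAblk : A = fromBlocks A.toBlocks₁₁ 0 0 A.toBlocks₂₂ := by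
        conv_lhs => rw [← Matrix.fromBlocks_toBlocks A, hz12, hz21]
      have hdet : A.det ≠ 0 := by
        have h1 : IsUnit A := by rw [hA]; exact a.isUnit.map R.symm
        exact ((Matrix.isUnit_iff_isUnit_det _).mp h1).ne_zero
      rw [hAblk, Matrix.det_fromBlocks_zero₂₁] at hdet
      let x1 : GL (Fin j) F := Matrix.GeneralLinearGroup.mk'' A.toBlocks₁₁ (isUnit_iff_ne_zero.mpr (left_ne_zero_of_mul hdet))
      let x2 : GL (Fin k) F := Matrix.GeneralLinearGroup.mk'' A.toBlocks₂₂ (isUnit_iff_ne_zero.mpr (right_ne_zero_of_mul hdet))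
      have he1 : emb (x1, x2) = a := by
        apply Units.ext
        show R (fromBlocks A.toBlocks₁₁ 0 0 A.toBlocks₂₂) = _
        rw [← hAblk, hA, AlgEquiv.apply_symm_apply]
      refine ⟨(x1, x2), Subtype.ext (Prod.ext ?_ (Prod.ext (Subtype.ext ?_) ?_))⟩
      · show g0 * emb (x1, x2) = g
        rw [he1, ha, mul_inv_cancel_left]
      · show ((x1⁻¹ : GL (Fin j) F) : Matrix (Fin j) (Fin j) F) * N0.1 * (x1 : Matrix (Fin j) (Fin j) F) = N.1
        rw [Matrix.mul_assoc, show N0.1 * (x1 : Matrix (Fin j) (Fin j) F) = A.toBlocks₁₁ * N.1 from e11]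
        exact Units.inv_mul_cancel_left x1 N.1
      · show x2⁻¹ * U0 * x2 = U
        apply Units.ext
        rw [Units.val_mul, Units.val_mul, Matrix.mul_assoc,
          show (U0 : Matrix (Fin k) (Fin k) F) * (x2 : Matrix (Fin k) (Fin k) F) = A.toBlocks₂₂ * U from e22]
        exact Units.inv_mul_cancel_left x2 _
  have hcard := Nat.card_congr (Equiv.sigmaFiberEquiv ψ)
  rw [Nat.card_sigma, Finset.sum_congr rfl (fun M _ => hfib M), Finset.sum_const, Finset.card_univ, smul_eq_mul,
    ← Nat.card_eq_fintype_card, Nat.card_prod, Nat.card_prod, Nat.card_prod] at hcard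
  have hk : 0 < Nat.card (GL (Fin k) F) := Nat.card_pos
  apply Nat.eq_of_mul_eq_mul_right hk
  calc _ = Nat.card T * (Nat.card (GL (Fin j) F) * Nat.card (GL (Fin k) F)) := by rw [Nat.mul_assoc]
    _ = _ := hcard
    _ = _ := by ring

theorem card_GL_succ (n : ℕ) : Nat.card (GL (Fin (n + 1)) F) =
    (Fintype.card F ^ (n + 1) - 1) * Fintype.card F ^ n * Nat.card (GL (Fin n) F) := by
  rw [Matrix.card_GL_field, Matrix.card_GL_field, Fin.prod_univ_succ, Fin.val_zero, pow_zero, mul_assoc]
  congr 1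
  have h : ∀ i : Fin n, Fintype.card F ^ (n + 1) - Fintype.card F ^ (i.succ : ℕ) =
      Fintype.card F * (Fintype.card F ^ n - Fintype.card F ^ (i : ℕ)) := fun i => by
    rw [Fin.val_succ, pow_succ', pow_succ', Nat.mul_sub]
  rw [Finset.prod_congr rfl fun i _ => h i, Finset.prod_mul_distrib, Finset.prod_const, Finset.card_univ, Fintype.card_fin]

/-- The number of nilpotent `n × n` matrices is `q^(n(n-1))`. -/
theorem card_nilMat (n : ℕ) : Nat.card (NilMat F n) = Fintype.card F ^ (n * (n - 1)) := by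
  classical
  set q := Fintype.card F with hq
  have hpart : ∀ m, ∑ k : Fin (m + 1), Nat.card {M : Matrix (Fin m) (Fin m) F // (M ^ m).rank = k.val} = q ^ (m * m) := by
    intro m
    let r : Matrix (Fin m) (Fin m) F → Fin (m + 1) := fun M =>
      ⟨(M ^ m).rank, by have := Matrix.rank_le_card_width (M ^ m); rw [Fintype.card_fin] at this; omega⟩
    have h := Nat.card_congr (Equiv.sigmaFiberEquiv r)
    rw [Nat.card_sigma] at h
    have hc : Nat.card (Matrix (Fin m) (Fin m) F) = q ^ (m * m) := by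
      show Nat.card (Fin m → Fin m → F) = _
      rw [Nat.card_eq_fintype_card, Fintype.card_fun, Fintype.card_fun, Fintype.card_fin, ← pow_mul]
    rw [← hc, ← h]
    exact Finset.sum_congr rfl fun k _ => Nat.card_congr (Equiv.subtypeEquivRight fun M => by simp [r, Fin.ext_iff])
  cases n with
  | zero =>
    rw [Nat.zero_mul, pow_zero]
    have : Unique (NilMat F 0) := ⟨⟨⟨0, IsNilpotent.zero⟩⟩, fun _ => Subsingleton.elim _ _⟩
    exact Nat.card_unique
  | succ n =>
    set c := (q ^ (n + 1) - 1) * q ^ n with hc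
    have hstep : ∀ k : Fin (n + 1), Nat.card {M : Matrix (Fin (n + 1)) (Fin (n + 1)) F // (M ^ (n + 1)).rank = k.succ.val} =
        c * Nat.card {M : Matrix (Fin n) (Fin n) F // (M ^ n).rank = k.val} := by
      intro k
      have h1 := card_fitting (F := F) (show (n - k.val) + k.succ.val = n + 1 by rw [Fin.val_succ]; omega)
      have h2 := card_fitting (F := F) (show (n - k.val) + k.val = n by omega)
      rw [card_GL_succ, ← hq, ← hc] at h1
      have hj : 0 < Nat.card (GL (Fin (n - k.val)) F) := Nat.card_pos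
      apply Nat.eq_of_mul_eq_mul_right hj
      rw [h1, mul_assoc c, h2]
      ring
    have h0 := card_fitting (F := F) (show (n + 1) + 0 = n + 1 by omega)
    have hT0 : Nat.card {M : Matrix (Fin (n + 1)) (Fin (n + 1)) F // (M ^ (n + 1)).rank = 0} = Nat.card (NilMat F (n + 1)) :=
      Nat.eq_of_mul_eq_mul_right Nat.card_pos h0
    have hsum := hpart (n + 1)
    rw [Fin.sum_univ_succ, Fin.val_zero, hT0, Finset.sum_congr rfl (fun k _ => hstep k), ← Finset.mul_sum, hpart n] at hsum
    rw [hc] at hsum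
    have hq1 : 1 ≤ q ^ (n + 1) := Nat.one_le_pow _ _ Fintype.card_pos
    have key : ((q : ℤ) ^ (n + 1) - 1) * (q : ℤ) ^ n * (q : ℤ) ^ (n * n) + (q : ℤ) ^ ((n + 1) * n) = (q : ℤ) ^ ((n + 1) * (n + 1)) := by
      ring
    have hsum' : (Nat.card (NilMat F (n + 1)) : ℤ) + ((q : ℤ) ^ (n + 1) - 1) * (q : ℤ) ^ n * (q : ℤ) ^ (n * n) =
        (q : ℤ) ^ ((n + 1) * (n + 1)) := by
      have := congrArg (fun x : ℕ => (x : ℤ)) hsum
      push_cast [Nat.cast_sub hq1] at this
      exact this
    have h3 : (Nat.card (NilMat F (n + 1)) : ℤ) = ((q ^ ((n + 1) * n) : ℕ) : ℤ) := by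
      push_cast; linarith
    rw [show (n + 1) * (n + 1 - 1) = (n + 1) * n by simp]
    exact_mod_cast h3

end CfsgLib.GLOrders
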